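import Cfsg.Agent.Lib.Coprime.Action
import Cfsg.Agent.Lib.Solvable.HallRel

/-!
# Classes of involutions with all pairwise products of `p`-power order

Assuming the conclusion of Glauberman's Z*-theorem for `d`, the commutator subgroup of the group
generated by the class of `d` is a `p`-group.
-/

set_option autoImplicit false

open scoped commutatorElement Pointwise

namespace Cfsg.Agent.Lib.PPowProd.Main

open Cfsg.Agent.Lib.Coprime.Action

variable {G : Type*} [Group G] [Finite G]

theorem of_zstar (p : ℕ) (hp : p.Prime) (hodd : p ≠ 2) {D : Set G} (d : G) (hdD : d ∈ D)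
    (hinv : ∀ x ∈ D, orderOf x = 2) (hD : D = conjugatesOf d) (hgen : Subgroup.closure D = ⊤)
    (hprod : ∀ x ∈ D, ∀ y ∈ D, x ≠ y → ∃ k : ℕ, orderOf (x * y) = p ^ k)
    (N : Subgroup G) (hNn : N.Normal) (hN : Odd (Nat.card N))
    (hc : ∀ g : G, d * g * d⁻¹ * g⁻¹ ∈ N) : Group.IsNilpotent (commutator G) := by
  classical
  haveI : Fact p.Prime := ⟨hp⟩
  have hd2 : d * d = 1 := by
    have := pow_orderOf_eq_one d
    rw [hinv d hdD, pow_two] at this
    exact this
  have hdinv : d⁻¹ = d := inv_eq_of_mul_eq_one_left hd2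
  have hconjD : ∀ g : G, g * d * g⁻¹ ∈ D := by
    intro g
    rw [hD]
    exact (isConj_iff.mpr ⟨g, rfl⟩)
  -- the group `⟨d⟩`
  let A : Subgroup G := Subgroup.zpowers d
  have hAcard : Nat.card A = 2 := by
    rw [Nat.card_zpowers, hinv d hdD]
  have hAcop : Nat.Coprime (Nat.card A) (Nat.card N) := by
    rw [hAcard, Nat.coprime_two_left]
    exact hN
  have hAN : A ≤ Subgroup.normalizer (N : Set G) := by
    intro a _
    refine Subgroup.mem_normalizer_iff.mpr fun k => ⟨fun h => hNn.conj_mem k h a, fun h => ?_⟩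
    have := hNn.conj_mem _ h a⁻¹
    simpa [mul_assoc] using this
  have hAsolv : Group.IsSolvable A := by
    apply isSolvable_of_comm
    rintro ⟨a, ha⟩ ⟨b, hb⟩
    obtain ⟨k, rfl⟩ := Subgroup.mem_zpowers_iff.mp ha
    obtain ⟨l, rfl⟩ := Subgroup.mem_zpowers_iff.mp hb
    apply Subtype.ext
    exact (Commute.refl d).zpow_zpow k l
  -- `G = N ⊔ ⟨d⟩`
  have hGN : ∀ g : G, g ∈ N ∨ g * d ∈ N := by
    have hT : N ⊔ A = ⊤ := by
      rw [eq_top_iff, ← hgen, Subgroup.closure_le]
      rw [hD]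
      intro x hx
      obtain ⟨g, rfl⟩ := isConj_iff.mp hx
      have h1 : g * d * g⁻¹ = (g * d * g⁻¹ * d⁻¹) * d := by group
      have h2 : g * d * g⁻¹ * d⁻¹ ∈ N := by
        have := N.inv_mem (hc g)
        convert this using 1
        group
      change g * d * g⁻¹ ∈ N ⊔ A
      rw [h1]
      exact Subgroup.mul_mem _ ((le_sup_left : N ≤ _) h2)
        ((le_sup_right : A ≤ _) (Subgroup.mem_zpowers d))
    intro g
    have hg : g ∈ N ⊔ A := by rw [hT]; trivial
    rw [← SetLike.mem_coe, Subgroup.normal_mul, Set.mem_mul] at hg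
    obtain ⟨u, hu, a, ha, rfl⟩ := hg
    obtain ⟨k, rfl⟩ := Subgroup.mem_zpowers_iff.mp ha
    rcases Int.even_or_odd' k with ⟨m, rfl | rfl⟩
    · left
      have : d ^ (2 * m) = 1 := by
        rw [zpow_mul, zpow_two, hd2, one_zpow]
      rw [this, mul_one]
      exact hu
    · right
      have : d ^ (2 * m + 1) * d = 1 := by
        rw [zpow_add_one, zpow_mul, zpow_two, hd2, one_zpow, one_mul, hd2]
      rw [mul_assoc, this, mul_one]
      exact hu
  -- the centralizer in `N`
  let C : Subgroup G := N ⊓ Subgroup.centralizer ({d} : Set G)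
  have hCN : C ≤ N := inf_le_left
  have hCmem : ∀ x, x ∈ N → x * d * x⁻¹ = d → x ∈ C := by
    intro x hx hxd
    refine ⟨hx, ?_⟩
    change x ∈ Subgroup.centralizer ({d} : Set G)
    rw [Subgroup.mem_centralizer_singleton_iff]
    calc x * d = x * d * x⁻¹ * x := by group
      _ = d * x := by rw [hxd]
  -- `q`-parts
  have hqp : ∀ q : ℕ, q.Prime → q ∣ C.relIndex N → q = p := by
    intro q hq hdvd
    by_contra hqp
    haveI : Fact q.Prime := ⟨hq⟩
    obtain ⟨Q, hQ, hQA⟩ := exists_invariant_sylowIn (p := q) (A := A) (K := N) hAN hAcop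
      (Or.inl hAsolv)
    have hQC : Q ≤ C := by
      intro x hx
      have hdQ : d ∈ Subgroup.normalizer (Q : Set G) := hQA (Subgroup.mem_zpowers d)
      refine hCmem x (hQ.1 hx) ?_
      by_contra hne
      have hne' : d ≠ x * d * x⁻¹ := fun h => hne h.symm
      obtain ⟨k, hk⟩ := hprod d hdD _ (hconjD x) hne'
      have hyQ : d * (x * d * x⁻¹) ∈ Q := by
        have h1 : d * x * d⁻¹ ∈ Q := (Subgroup.mem_normalizer_iff.mp hdQ x).mp hx
        have h2 : d * (x * d * x⁻¹) = (d * x * d⁻¹) * x⁻¹ := by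
          rw [hdinv]; group
        rw [h2]
        exact Q.mul_mem h1 (Q.inv_mem hx)
      obtain ⟨j, hj⟩ := hQ.2.1 ⟨_, hyQ⟩
      have hj' : (d * (x * d * x⁻¹)) ^ (q ^ j) = 1 := by
        have := congrArg Subtype.val hj
        simpa using this
      have hdv : p ^ k ∣ q ^ j := by
        rw [← hk]
        exact orderOf_dvd_of_pow_eq_one hj'
      have hcop : Nat.Coprime (p ^ k) (q ^ j) :=
        Nat.Coprime.pow _ _ ((Nat.coprime_primes hp hq).mpr (Ne.symm hqp))
      have h1 : p ^ k = 1 := Nat.Coprime.eq_one_of_dvd hcop hdv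
      rw [h1, orderOf_eq_one_iff] at hk
      apply hne'
      have := eq_inv_of_mul_eq_one_right hk
      rw [this, hdinv]
    have hle := Subgroup.relIndex_mul_relIndex Q C N hQC hCN
    apply hQ.2.2
    rw [← hle]
    exact Dvd.dvd.mul_left hdvd _
  -- a `d`-invariant Sylow `p`-subgroup
  obtain ⟨P₀, hP₀, hP₀A⟩ := exists_invariant_sylowIn (p := p) (A := A) (K := N) hAN hAcop
    (Or.inl hAsolv)
  have hcop : Nat.Coprime (P₀.subgroupOf N).index (C.subgroupOf N).index := by
    apply Nat.coprime_of_dvd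
    intro q hq h1 h2
    have h3 : q = p := hqp q hq h2
    subst h3
    exact hP₀.2.2 h1
  -- every conjugate of `d` lies in `P₀ ⊔ A`
  have hTtop : P₀ ⊔ A = ⊤ := by
    rw [eq_top_iff, ← hgen, Subgroup.closure_le, hD]
    intro x hx
    obtain ⟨g, rfl⟩ := isConj_iff.mp hx
    have key : ∀ n ∈ N, n * d * n⁻¹ ∈ P₀ ⊔ A := by
      intro n hn
      obtain ⟨u, hu, v, hv, huv⟩ :=
        Cfsg.Agent.Lib.Solvable.HallRel.exists_mul_of_coprime_index _ _ hcop (⟨n, hn⟩ : N)
      have hn' : n = (u : G) * (v : G) := congrArg Subtype.val huv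
      have hv' : (v : G) ∈ Subgroup.centralizer ({d} : Set G) := (Subgroup.mem_subgroupOf.mp hv).2
      rw [Subgroup.mem_centralizer_singleton_iff] at hv'
      have h1 : n * d * n⁻¹ = (u : G) * d * (u : G)⁻¹ := by
        rw [hn', mul_inv_rev]
        calc (u : G) * (v : G) * d * ((v : G)⁻¹ * (u : G)⁻¹)
            = (u : G) * ((v : G) * d) * (v : G)⁻¹ * (u : G)⁻¹ := by group
          _ = (u : G) * d * (u : G)⁻¹ := by rw [hv']; group
      rw [h1]
      have hu' : (u : G) ∈ P₀ := Subgroup.mem_subgroupOf.mp hu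
      exact Subgroup.mul_mem _ (Subgroup.mul_mem _ ((le_sup_left : P₀ ≤ _) hu')
        ((le_sup_right : A ≤ _) (Subgroup.mem_zpowers d)))
        (Subgroup.inv_mem _ ((le_sup_left : P₀ ≤ _) hu'))
    change g * d * g⁻¹ ∈ P₀ ⊔ A
    rcases hGN g with h | h
    · exact key g h
    · have := key _ h
      have h2 : g * d * d * (g * d)⁻¹ = g * d * g⁻¹ := by
        rw [mul_inv_rev, hdinv]
        calc g * d * d * (d * g⁻¹) = g * (d * d) * (d * g⁻¹) := by group
          _ = g * d * g⁻¹ := by rw [hd2]; group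
      rwa [h2] at this
  -- `P₀` is normal
  have hP₀n : P₀.Normal := by
    have hle : P₀ ⊔ A ≤ Subgroup.normalizer (P₀ : Set G) := sup_le Subgroup.le_normalizer hP₀A
    rw [hTtop] at hle
    constructor
    intro n hn g
    exact (Subgroup.mem_normalizer_iff.mp (hle (Subgroup.mem_top g)) n).mp hn
  -- the commutator subgroup
  have hcomm : commutator G ≤ P₀ := by
    let π := QuotientGroup.mk' P₀
    have hker : ∀ u v, ⁅u, v⁆ ∈ P₀ ↔ Commute (π u) (π v) := by
      intro u v
      rw [← commutatorElement_eq_one_iff_commute, ← map_commutatorElement]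
      exact (QuotientGroup.eq_one_iff _).symm
    have hform : ∀ g : G, ∃ k : ℤ, π g = π d ^ k := by
      intro g
      have hg : g ∈ P₀ ⊔ A := by rw [hTtop]; trivial
      rw [← SetLike.mem_coe, Subgroup.normal_mul, Set.mem_mul] at hg
      obtain ⟨u, hu, a, ha, rfl⟩ := hg
      obtain ⟨k, rfl⟩ := Subgroup.mem_zpowers_iff.mp ha
      refine ⟨k, ?_⟩
      have hu1 : π u = 1 := (QuotientGroup.eq_one_iff _).mpr hu
      rw [map_mul, hu1, one_mul, map_zpow]
    rw [commutator_def, Subgroup.commutator_le]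
    intro x _ y _
    rw [hker]
    obtain ⟨k, hk⟩ := hform x
    obtain ⟨l, hl⟩ := hform y
    rw [hk, hl]
    exact (Commute.refl _).zpow_zpow k l
  have hpg : IsPGroup p (commutator G) := hP₀.2.1.to_le hcomm
  exact hpg.isNilpotent

end Cfsg.Agent.Lib.PPowProd.Main
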